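import Cfsg.Agent.H27.CSuz
import Cfsg.Agent.H17.SuzG2
import Cfsg.Agent.H27.TG24

/-! A cover (generated certificate). -/

set_option autoImplicit false
set_option maxRecDepth 100000

namespace Cfsg.Agent.H27.CG24

open Cfsg H27.Tl

noncomputable def u : List ℕ := [0, 1, 0, 1, 0, 1, 0, 1, 0, 1, 1, 2, 1, 2, 1, 2, 1, 5, 1, 5, 1, 5, 0, 1, 2, 5, 0, 1, 2, 5, 0, 1, 2, 5, 0, 1, 2, 5, 0, 1, 2, 5]
noncomputable def v : List ℕ := [0, 0, 0, 0, 0, 0, 0, 0, 0, 0, 1, 1, 1, 1, 1, 1, 1, 1, 1, 1, 1, 1, 1, 1, 1, 1, 2, 2, 2, 2, 2, 2, 2, 2, 5, 5, 5, 5, 5, 5, 5, 5]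

theorem flat (l : List ℕ) : (l.map fun x => [x]).flatten = l := by
  induction l <;> simp_all

theorem cov : CovD 2 (Lie.chevG2.group H17.F4) := by
  haveI := H17.Suz.faith.fin
  obtain ⟨e⟩ := H17.Suz.isoG2
  haveI := (S1055.result (F := H17.F4) ⟨H17.dec4 2, by decide, by decide⟩).1
  haveI := e.isSimpleGroup
  refine CovD.congr ?_ e
  refine CSuz.bM.cov H17.Suz.pres _ (perfect_of_simple ((Nat.card_congr e.toEquiv).trans TG24.card)
    (by norm_num) (by norm_num)) Nat.prime_two ari2_ok XSuz.good rfl rfl XSuz.sat (fun a _ => ?_)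
    ⟨by decide +kernel, rfl⟩ (fun r hr => ⟨one_pow _, CSuz.brel r hr⟩) (us := u.map fun x => [x])
    (vs := v.map fun x => [x]) ((permB_spec (ng := 6) (by decide +kernel)).1.map _) (fun w hw => ?_) ?_
    (s := true) (t := false) (s' := false) (t' := false) (by decide +kernel) (by decide +kernel) (by decide)
  · obtain ⟨w, h1, h2⟩ := strip H17.Suz.pres.toGens a
    exact ⟨w, h1, one_pow _, h2⟩
  · have : ∀ w ∈ u.map fun x => [x], (∀ x ∈ w, x < 7) ∧ w ∈ H17.SuzT.W := by decide +kernel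
    exact ⟨(this w hw).1, one_pow _, H17.mem_wgrp _ (this w hw).2⟩
  · have := H17.Suz.faith.satS H17.SuzT.rep H17.SuzS.ok (K := [u, v]) (by decide +kernel)
    rw [flat, flat, this u (by simp), this v (by simp)]

end Cfsg.Agent.H27.CG24
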