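import Cfsg.Agent.H17.Cover
import Cfsg.Agent.H17.Grp2
import Cfsg.Agent.H17.Mat

/-! Central extensions of a presented simple group inside a given group. -/

set_option autoImplicit false
set_option linter.style.haveILetI false

namespace Cfsg.Agent.H27.Tl

open Subgroup
open H17 (ev Presents Sat)

/-- letters that satisfy the relators of a simple group modulo a central element -/
theorem center_of_pres {G : Type} [Group G] [IsSimpleGroup G] [Finite G] (hG : ¬ (Nat.card G).Prime)
    {k nc : ℕ} {R : List (List ℕ)} {g : ℕ → G} (hP : Presents k nc R g) (h1 : (nc - k) % 2 = 0)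
    (h2 : k ≤ nc) {Γ : Type} [Group Γ] (m : ℕ → Γ) (hz : m nc ∈ center Γ) (ht : ∀ x, nc < x → m x = 1)
    (hR : ∀ r ∈ H17.invWords k nc ++ R, ev m r ∈ zpowers (m nc)) (hne : m 0 ∉ zpowers (m nc)) :
    Nat.card (center (closure (Set.range m))) = orderOf (m nc) ∧
      Nonempty (G ≃* closure (Set.range m) ⧸ center (closure (Set.range m))) := by
  let H := closure (Set.range m)
  let b : ℕ → H := fun x => ⟨m x, subset_closure ⟨x, rfl⟩⟩
  have hb : ∀ u, (ev b u).1 = ev m u := fun u => H17.map_ev' H.subtype (fun _ => rfl) u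
  have hc : zpowers (b nc) ≤ center H := zpowers_le.2
    (mem_center_iff.2 fun a => Subtype.ext (mem_center_iff.1 hz a))
  haveI : (zpowers (b nc)).Normal := ⟨fun a ha c => by
    rw [mem_center_iff.1 (hc ha) c, mul_inv_cancel_right]; exact ha⟩
  let π := QuotientGroup.mk' (zpowers (b nc))
  have hπ : ∀ a : H, π a = 1 ↔ a.1 ∈ zpowers (m nc) := fun a => by
    rw [QuotientGroup.mk'_apply, QuotientGroup.eq_one_iff]
    exact ⟨fun ⟨n, hn⟩ => ⟨n, congrArg Subtype.val hn⟩, fun ⟨n, hn⟩ => ⟨n, Subtype.ext hn⟩⟩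
  have hs : Sat (fun x => π (b x)) (H17.invWords k nc ++ R) := fun r hr => by
    rw [← H17.map_ev, hπ, hb]; exact hR r hr
  have ht' : ∀ x, nc ≤ x → π (b x) = 1 := fun x hx => (hπ _).2 (by
    rcases hx.eq_or_lt with rfl | c
    · exact mem_zpowers _
    · show m x ∈ _
      rw [ht x c]; exact one_mem _)
  obtain ⟨φ, hφ⟩ := hP.lift _ (fun x => π (b x))
    (H17.inv_of_sat h1 h2 ht' (hs.mono fun r hr => List.mem_append_left _ hr)) ht'
    (hs.mono fun r hr => List.mem_append_right _ hr)
  have i : Function.Injective φ := H17.inj_of_simple φ (a := g 0) (by rw [hφ]; exact mt (hπ _).1 hne)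
  have su : Function.Surjective φ := by
    have : ∀ a (ha : a ∈ H), π ⟨a, ha⟩ ∈ φ.range := fun a ha => by
      induction ha using closure_induction with
      | mem a ha => obtain ⟨x, rfl⟩ := ha; exact ⟨g x, hφ x⟩
      | one => exact (map_one π).symm ▸ one_mem _
      | mul a c ha hc' i1 i2 => exact (map_mul π ⟨a, ha⟩ ⟨c, hc'⟩).symm ▸ mul_mem i1 i2
      | inv a ha i1 => exact (map_inv π ⟨a, ha⟩).symm ▸ inv_mem i1
    intro q
    obtain ⟨a, rfl⟩ := QuotientGroup.mk'_surjective _ q
    exact this a.1 a.2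
  let e := MulEquiv.ofBijective φ ⟨i, su⟩
  haveI := e.symm.isSimpleGroup
  haveI : Finite (H ⧸ zpowers (b nc)) := Finite.of_surjective φ su
  have ce : center H = zpowers (b nc) := by
    have := H17.center_eq_ker (θ := π) (QuotientGroup.mk'_surjective _)
      (H17.center_eq_bot_of_simple (by rwa [← Nat.card_congr e.toEquiv]))
      (by rw [QuotientGroup.ker_mk']; exact hc)
    rwa [QuotientGroup.ker_mk'] at this
  refine ⟨?_, ⟨e.trans (QuotientGroup.quotientMulEquivOfEq ce.symm)⟩⟩
  show Nat.card (center H) = _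
  rw [ce, Nat.card_zpowers, ← Subgroup.orderOf_coe]

/-- a homomorphism to a commutative group that kills the relators kills the letters -/
theorem letters_trivial {G : Type} [Group G] (hp : commutator G = ⊤)
    {k nc : ℕ} {R : List (List ℕ)} {g : ℕ → G} (hP : Presents k nc R g) (h1 : (nc - k) % 2 = 0)
    (h2 : k ≤ nc) {C : Type} [CommGroup C] (t : ℕ → C) (ht : ∀ x, nc ≤ x → t x = 1)
    (hs : Sat t (H17.invWords k nc ++ R)) (x : ℕ) : t x = 1 := by
  obtain ⟨φ, hφ⟩ := hP.lift _ t
    (H17.inv_of_sat h1 h2 ht (hs.mono fun r hr => List.mem_append_left _ hr)) ht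
    (hs.mono fun r hr => List.mem_append_right _ hr)
  rw [← hφ]
  exact Abelianization.commutator_subset_ker φ (hp ▸ mem_top _)

end Cfsg.Agent.H27.Tl
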