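import Cfsg.Agent.H27.O45D
import Cfsg.Agent.H27.PrC
import Cfsg.Agent.H27.ON
import Cfsg.Agent.H27.Orb
import Cfsg.Prelude.Def_Sporadic

/-! A triple cover of the O'Nan group in degree 45 over the field with seven elements. -/

set_option autoImplicit false
set_option maxRecDepth 100000
set_option linter.style.haveILetI false

namespace Cfsg.Agent.H27.O45

open H17 Subgroup Matrix

theorem rel' {Γ : Type} [Group Γ] {τ : Γ →* Matrix (Fin 45) (Fin 45) (ZMod 7)} {m : ℕ → Γ}
    (hτ : Function.Injective τ) (h : ∀ x, τ (m x) = MN.letM 45 7 Ms x) :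
    ∀ r ∈ invWords 6 8 ++ ON.R0, ev m r ∈ zpowers (m 8) := by
  have e : invWords 6 8 ++ ON.R0 = RR := by decide +kernel
  rw [e]
  intro r hr
  rcases Bool.or_eq_true_iff.1 (rel r hr) with c | c
  · rw [MN.weqN_ev shape bnd hτ h c]; exact one_mem _
  · rw [MN.weqN_ev shape bnd hτ h c, ev_single]; exact mem_zpowers _

theorem scal' : MN.letM 45 7 Ms 8 = (2 : ZMod 7) • (1 : Matrix (Fin 45) (Fin 45) (ZMod 7)) := by
  ext i j
  have := beq_true (allLt_true (allLt_true scal i i.2) j j.2)
  change ((nth 0 (nth [] M8 i) j : ℕ) : ZMod 7) = _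
  rw [this, Matrix.smul_apply, one_apply]
  simp only [Fin.val_inj]
  split_ifs <;> simp

instance fact7 : Fact (Nat.Prime 7) := ⟨by norm_num⟩

theorem exists_sl : ∃ m : ℕ → SpecialLinearGroup (Fin 45) (ZMod 7),
    ∀ x, slToMat 45 (ZMod 7) (m x) = MN.letM 45 7 Ms x := by
  obtain ⟨m, h⟩ := MN.exists_units (p := 7) shape bnd fun x hx => by
    have hx' : x < 9 := hx
    rcases Nat.lt_succ_iff_lt_or_eq.1 hx' with c | rfl
    · exact ⟨_, allLt_true invs x c⟩
    · exact ⟨_, pw8⟩
  let χ : GL (Fin 45) (ZMod 7) →* (ZMod 7)ˣ := Matrix.GeneralLinearGroup.det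
  have hχ : ∀ x, (χ (m x) : ZMod 7) = (MN.letM 45 7 Ms x).det := fun x => by
    rw [← h, Matrix.GeneralLinearGroup.val_det_apply, Units.coeHom_apply]
  have h8 : χ (m 8) = 1 := Units.ext (by
    rw [hχ, scal', det_smul, det_one, Fintype.card_fin]
    decide +kernel)
  haveI := ON.simple
  have all := Tl.letters_trivial (Tl.perfect_of_simple ON.faith.card (by norm_num) (by norm_num)) ON.pres
    (by decide) (by decide) (fun x => χ (m x)) (fun x hx => by
      rcases hx.eq_or_lt with rfl | c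
      · exact h8
      · exact Units.ext (by rw [hχ, MN.letM_ge (Ms := Ms) c, det_one]; rfl)) fun r hr => by
      obtain ⟨n, hn⟩ := rel' Units.val_injective h r hr
      rw [← map_ev, ← hn, map_zpow, h8, _root_.one_zpow]
  exact ⟨fun x => ⟨_, (hχ x).symm.trans (congrArg Units.val (all x))⟩, fun _ => rfl⟩

theorem main : ∃ H : Subgroup (SpecialLinearGroup (Fin 45) (ZMod 7)),
    Nat.card (center H) = 3 ∧ Cfsg.IsON (H ⧸ center H) := by
  obtain ⟨m, h⟩ := exists_sl
  have inj := slToMat_inj (F := ZMod 7) 45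
  haveI := ON.simple
  haveI := ON.faith.fin
  have e8 : slToMat 45 (ZMod 7) (m 8) = (2 : ZMod 7) • (1 : Matrix (Fin 45) (Fin 45) (ZMod 7)) :=
    (h 8).trans scal'
  have p8 : m 8 ^ 3 = 1 := by
    have := MN.weqN_ev shape bnd inj h pw8
    simpa [pow_succ, mul_assoc] using this
  have n8 : m 8 ≠ 1 := fun e => by
    rw [e, map_one] at e8
    have := congrFun (congrFun e8 0) 0
    revert this; simp only [Matrix.smul_apply, one_apply_eq]; decide
  obtain ⟨a, ⟨e⟩⟩ := Tl.center_of_pres (by rw [ON.faith.card]; norm_num) ON.pres (by decide) (by decide) m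
    (mem_center_of_scalar inj e8)
    (fun x hx => inj (by rw [h, MN.letM_ge (Ms := Ms) hx, map_one])) (rel' inj h) (by
      rintro ⟨n, hn⟩
      obtain ⟨d, hd⟩ := center_SL_scalar (m 0) (hn ▸ zpow_mem (mem_center_of_scalar inj e8) n)
      have h0 := congrFun (congrFun ((h 0).symm.trans hd) 0) 1
      exact ent (h0.trans (by simp)))
  haveI : Fact (Nat.Prime 3) := ⟨Nat.prime_three⟩
  exact ⟨_, a.trans (orderOf_eq_prime p8 n8), e.symm.isSimpleGroup,
    (Nat.card_congr e.toEquiv).symm.trans ON.faith.card⟩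

end Cfsg.Agent.H27.O45
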