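import Cfsg.Agent.H27.Prj
import Cfsg.Agent.H17.Ext

/-! A presentation of a group with a faithful permutation model. -/

set_option autoImplicit false
set_option linter.style.haveILetI false

namespace Cfsg.Agent.H27.Tl

open Cfsg Subgroup
open H17 (nth ev Presents Sat CardLe PG pgen)

namespace PM
variable {G : Type} [Group G] {n w N : ℕ} {S base : List ℕ} (X : PM G n w N S base)

theorem R_unique {a b : G} {x : ℕ} (h : X.R a x) (h' : X.R b x) : a = b :=
  X.act.faith _ _ fun _ _ _ hω => X.act.fn (X.act.app h hω) (X.act.app h' hω) rfl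

/-- letters that generate the group and satisfy the relators of a small enough presented group -/
theorem presents {L : List ℕ} (hL : InR X.R ⊤ L) (hg : ∀ K : Subgroup G, InR X.R K L → InR X.R K S)
    {k nc : ℕ} {R : List (List ℕ)} (hlen : L.length = nc) (h1 : (nc - k) % 2 = 0) (h2 : k ≤ nc)
    (hR : (H17.invWords k nc ++ R).all
      (fun r => (Mc.perm w n base).weqB ((Mc.perm w n base).cw L r) ((Mc.perm w n base).cw L [])) = true)
    (hc : CardLe (⊤ : Subgroup (PG k nc R)) N) :
    ∃ g : ℕ → G, (∀ i, X.R (g i) (nth (Mc.perm w n base).one L i)) ∧ Presents k nc R g := by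
  obtain ⟨f, -, hf⟩ := X.act.exists_g hL
  have hs : Sat f (H17.invWords k nc ++ R) := fun r hr => X.act.weqB hf (List.all_eq_true.1 hR r hr)
  have ht : ∀ x, nc ≤ x → f x = 1 := fun x hx => by
    have := hf x
    rw [H17.nth_of_ge _ (hlen ▸ hx)] at this
    exact X.R_unique this X.act.one
  have hI : H17.Inv k f := H17.inv_of_sat h1 h2 ht (hs.mono fun r hr => List.mem_append_left _ hr)
  have hS : Sat f R := hs.mono fun r hr => List.mem_append_right _ hr
  have pr := H17.presents_PG k nc R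
  obtain ⟨φ, hφ⟩ := pr.lift G f hI ht hS
  have hin : InR X.R φ.range S := hg _ fun x hx => by
    obtain ⟨i, hi, rfl⟩ := List.getElem_of_mem hx
    have := hf i
    rw [H17.nth_eq_getD, List.getD_eq_getElem _ _ hi] at this
    exact ⟨_, ⟨_, hφ i⟩, this⟩
  have su : Function.Surjective φ := by
    obtain ⟨g, a1, a2, a3⟩ := X.gen
    rw [← MonoidHom.range_eq_top, eq_top_iff, ← a3, closure_le]
    rintro _ ⟨i, rfl⟩
    by_cases c : i < S.length
    · have := a1 i
      rw [H17.nth_eq_getD, List.getD_eq_getElem _ _ c] at this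
      obtain ⟨b, b1, b2⟩ := hin _ (List.getElem_mem c)
      exact X.R_unique b2 this ▸ b1
    · rw [a2 i (not_lt.1 c)]; exact one_mem _
  obtain ⟨fin, le⟩ := hc.top
  let e := MulEquiv.ofBijective φ (su.bijective_of_nat_card_le (X.card ▸ le))
  refine ⟨f, hf, ⟨hI, ht, fun a => ?_⟩, hS, fun M _ h b1 b2 b3 => ?_⟩
  · obtain ⟨b, rfl⟩ := su a
    obtain ⟨v, rfl⟩ := pr.surj b
    exact ⟨v, (H17.map_ev' φ hφ v).symm⟩
  · obtain ⟨ψ, hψ⟩ := pr.lift M h b1 b2 b3
    refine ⟨ψ.comp e.symm.toMonoidHom, fun x => ?_⟩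
    rw [← hφ x, ← hψ x]
    exact congrArg ψ (e.symm_apply_apply _)

end PM

end Cfsg.Agent.H27.Tl
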