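import Cfsg.Agent.H27.Bin
import Cfsg.Agent.H16.MFp
import Cfsg.Agent.H14.St

/-! Covers of Chevalley groups over the field with two elements from the Steinberg relations. -/

set_option autoImplicit false

namespace Cfsg.Agent.H27.Tl

open Cfsg H14 Cfsg.Lie
open H17 (ev)
open scoped commutatorElement

variable {D : ChevalleyDatum} (G : Good D)

/-- the right side of the commutator formula -/
def cwd (D : ChevalleyDatum) (r s : ℕ) : List ℕ := ((D.commTerms r s).filter fun c => (c.2.1 : ZMod 2) ≠ 0).map (·.1)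

theorem word_cwd {M : Type*} [Group M] (X : RG0 G.R (ZMod 2) M) (r s : ℕ) :
    wordX X (D.commWord (ZMod 2) r s 1 1) = ev (fun r => xN X r 1) (cwd D r s) := by
  rw [ChevalleyDatum.commWord, cwd]
  induction D.commTerms r s with
  | nil => rfl
  | cons c l ih =>
    have e : ∀ a : ZMod 2, a = 0 ∨ a = 1 := by decide
    rw [List.map_cons, wordX_cons, ih]
    rcases e c.2.1 with h | h <;> simp [h, CharTwo.neg_eq, xN]

theorem st_lift (h : StData D) {M : Type} [Group M] (m : ℕ → M) (h0 : ∀ r, D.nroots ≤ r → m r = 1)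
    (h1 : ∀ r < D.nroots, m r * m r = 1)
    (h2 : ∀ r s : Fin D.nroots, s ≠ r → s ≠ G.R.neg r → m s * m r = m r * m s * ev m (cwd D r s)) :
    ∃ φ : D.group (ZMod 2) →* M, ∀ r, φ (xN (G.rgD (ZMod 2)).toRG0 r 1) = m r := by
  have e : ∀ a : ZMod 2, a = 0 ∨ a = 1 := by decide
  let y : Fin D.nroots → ZMod 2 → M := fun r t => if t = 0 then 1 else m r
  have a1 : ∀ r t u, y r (t + u) = y r t * y r u := fun r t u => by
    rcases e t with rfl | rfl <;> rcases e u with rfl | rfl <;> simp [y, CharTwo.add_self_eq_zero, h1]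
  have a2 : ∀ r s : Fin D.nroots, s ≠ r → s ≠ G.R.neg r → ∀ t u, y s u * y r t = y r t * y s u *
      ((D.commWord (ZMod 2) r s t u).map fun p => if h : p.1 < D.nroots then y ⟨p.1, h⟩ p.2 else 1).prod := by
    intro r s b1 b2 t u
    by_cases c : t = 0 ∨ u = 0
    · rw [List.prod_eq_one, mul_one]
      · rcases c with rfl | rfl <;> simp [y]
      · intro x hx
        obtain ⟨p, hp, rfl⟩ := List.mem_map.1 hx
        obtain ⟨d, hd, rfl⟩ := List.mem_map.1 hp
        obtain ⟨k, -, d2, d3, -⟩ := G.commTerms_spec hd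
        rcases c with rfl | rfl <;> simp [y, d2.ne', d3.ne']
    · obtain rfl := (e t).resolve_left fun d => c (.inl d)
      obtain rfl := (e u).resolve_left fun d => c (.inr d)
      simp only [y, one_ne_zero, if_false, h2 r s b1 b2, ChevalleyDatum.commWord, cwd]
      congr 1
      induction D.commTerms r s with
      | nil => rfl
      | cons c l ih =>
        rw [List.map_cons, List.map_cons, List.prod_cons, ← ih]
        rcases e c.2.1 with h | h <;> by_cases d : c.1 < D.nroots <;> simp [h, d, CharTwo.neg_eq, h0 _ ∘ not_lt.1]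
  let X := mkRG0 G y a1 a2
  have a3 := hom_toGroup G subset_rfl X (lift_relsAB X a2)
  have a4 := hom_toGroup G subset_rfl _ (lift_relsAB _ (G.rgD_chev (ZMod 2)))
  let ε := MulEquiv.ofBijective (PresentedGroup.toGroup (lift_relsAB _ (G.rgD_chev (ZMod 2))))
    ⟨(injective_iff_map_eq_one _).2 fun g hg => (Subgroup.closure_le ⊥).2 (by
      rintro _ ⟨r, t, ht, rfl⟩
      rw [(e t).resolve_left ht, RG0.h_one]; rfl)
      (RG.mem_H_of_map_eq_one (X := rgSc G _ h) a4 ((rgSc_grp G _ h).ge trivial) hg),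
    MonoidHom.range_eq_top.1 (by
      rw [MonoidHom.range_eq_map, ← presRG0_grp G subset_rfl, a4.map_grp, G.rgD_top])⟩
  refine ⟨(PresentedGroup.toGroup (lift_relsAB X a2)).comp ε.symm.toMonoidHom, fun r => ?_⟩
  by_cases c : r < D.nroots
  · rw [xN, dif_pos c, ← a4.map_x]
    exact (congrArg _ (ε.symm_apply_apply _)).trans (a3.map_x _ _)
  · rw [xN, dif_neg c, map_one, h0 r (not_lt.1 c)]

theorem comm_ev {M : Type*} [Group M] {x : ℕ → M} (h : ∀ r, x r * x r = 1) (u v : List ℕ) :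
    ⁅ev x u, ev x v⁆ = ev x (u ++ v ++ u.reverse ++ v.reverse) := by
  have : ∀ u, (ev x u)⁻¹ = ev x u.reverse := fun u => by
    induction u with
    | nil => simp
    | cons a u ih => simp [ih, inv_eq_of_mul_eq_one_right (h a)]
  simp only [commutatorElement_def, this, H17.ev_append]

open H16 (Ops Mdl allB allB_spec FP fpMdl)

theorem evW_R {H Ω : Type*} [Group H] [MulAction H Ω] {o : Ops} {M : Mdl o H Ω} {Y : ℕ → ℕ} {x : ℕ → H}
    (hx : ∀ r, M.R (Y r) (x r)) (w : List ℕ) : M.R (evW o.mul o.one Y w) (ev x w) := by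
  induction w with
  | nil => exact M.R_one
  | cons r w ih =>
    rw [show evW o.mul o.one Y (r :: w) = o.mul (Y r) (evW o.mul o.one Y w) from frc_eq _ _, H17.ev_cons]
    exact M.R_mul (hx r) ih

/-- the commutator relations hold up to `z` -/
noncomputable def stB (D : ChevalleyDatum) (o : Ops) (Y : ℕ → ℕ) (zc r : ℕ) : Bool :=
  allB D.nroots fun s => Nat.beq s r || Nat.beq s (D.neg r) || frc (evW o.mul o.one Y [s, r]) fun a =>
    frc (evW o.mul o.one Y (r :: s :: cwd D r s)) fun b => o.eqb a b || o.eqb (o.mul a zc) b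

theorem cov_st (h : StData D) [Finite (D.group (ZMod 2))] {H Ω : Type} [Group H] [Finite H] [MulAction H Ω] {o : Ops}
    {M : Mdl o H Ω} {Y : ℕ → ℕ} {x : ℕ → H} (hx : ∀ r, M.R (Y r) (x r)) {zc : ℕ} {z : H} (rz : M.R zc z)
    (hz : ∀ a, Commute z a) (h0 : ∀ r, D.nroots ≤ r → Y r = o.one) (h1 : ∀ r, x r * x r = 1)
    (h2 : ∀ r < D.nroots, stB D o Y zc r = true) {u v : List ℕ} {e : ℕ}
    (h3 : gw G (ZMod 2) (u ++ v ++ u.reverse ++ v.reverse) ^ e = 1)
    (h4 : o.eqb (H16.powM o (evW o.mul o.one Y (u ++ v ++ u.reverse ++ v.reverse)) e) zc = true) :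
    Cov (orderOf z) (D.group (ZMod 2)) := by
  have a := fun r s b c => G.rgD_chev (ZMod 2) r s b c 1 1
  simp only [word_cwd] at a
  have a1 : ∀ r, xN (G.rgD (ZMod 2)).toRG0 r 1 * xN (G.rgD (ZMod 2)).toRG0 r 1 = 1 := fun r => by
    by_cases hr : r < D.nroots <;> simp [xN, hr, ← RG0.x_add, CharTwo.add_self_eq_zero]
  rw [← Nat.card_zpowers, Subgroup.zpowers_eq_closure]
  refine cov_of_lift (g := fun r => xN (G.rgD (ZMod 2)).toRG0 r 1) (fun g => ?_) x _ (fun _ e _ => e ▸ hz _)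
    (fun M _ m hm => st_lift G h m (fun r hr => ?_) (fun r _ => ?_) fun r s b c => ?_) ?_
  · refine (G.rgD (ZMod 2)).gen_induction (P := fun g => ∃ v, ev _ v = g) ⟨[], rfl⟩ ?_ ((G.rgD_top _).ge trivial : g ∈ _)
    rintro r - t _ - ⟨v, rfl⟩
    rcases (by decide : ∀ a : ZMod 2, a = 0 ∨ a = 1) t with rfl | rfl
    exacts [⟨v, by simp⟩, ⟨r :: v, by simp⟩]
  · simpa using (hm [] [r] (by simp [xN, hr.not_gt]) (by simp [Mdl.R_fun (hx r) (h0 r hr ▸ Mdl.R_one _)])).symm
  · simpa using (hm [] [r, r] (by simp [a1]) (by simp [h1])).symm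
  · have := allB_spec (h2 r r.2) s s.2
    simp only [Bool.or_eq_true, Nat.beq_eq, frc_eq, Fin.val_inj, G.val_eq_neg_iff, b, c, false_or] at this
    simpa [mul_assoc] using hm [s, r] (r :: s :: cwd D r s) (by simpa [mul_assoc] using a r s b c) (by
      rcases this with d | d
      · rw [Mdl.eq_of _ (evW_R hx _) (evW_R hx _) d, inv_mul_cancel]; exact one_mem _
      · rw [← Mdl.eq_of _ (Mdl.R_mul _ (evW_R hx _) rz) (evW_R hx _) d, inv_mul_cancel_left]
        exact Subgroup.subset_closure rfl)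
  · rintro _ rfl
    exact ⟨u, v, e, comm_ev a1 u v ▸ h3, comm_ev h1 u v ▸ M.eq_of (Mdl.R_pow (evW_R hx _) e) rz h4⟩

theorem exists_invol {P : FP} (h : P.Ok) {one : ℕ} (h1 : P.E one ∧ P.mat P.n one = 1) {a : ℕ}
    (e : (P.eB a && Nat.beq (P.mul a a) one) = true) :
    ∃ g, (fpMdl h (fun _ _ => rfl) h1).R a g ∧ g * g = 1 := by
  rw [Bool.and_eq_true, Nat.beq_eq] at e
  have a1 := FP.e_of h e.1
  have : P.mat P.n a * P.mat P.n a = 1 := by
    rw [← h1.2, ← e.2]
    ext i k
    rw [Matrix.mul_apply, FP.mat, FP.mat, Matrix.of_apply, FP.get_mul h a1.2 a1.2 i.2 k.2, ← Fin.sum_univ_eq_sum_range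
      (fun j => (H16.get P.s a (P.n * j + i) : ZMod P.p) * H16.get P.s a (P.n * k + j))]
    rfl
  exact ⟨⟨_, _, this, this⟩, ⟨a1, rfl⟩, Units.ext this⟩

end Cfsg.Agent.H27.Tl
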